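-- Team project SUG (S2412): packages [QUOT] and [CHAIN] (helper75).
import Mathlib
import Cfsg.Agent.Lib.Helper60.SUG.Defs

set_option autoImplicit false

namespace Cfsg.Agent.Lib.Helper75.SUG

open Cfsg.Agent.Lib.Helper60.SUG

universe u

/-- [QUOT] two generators of `SU_n` give two generators of `PSU_n`. -/
theorem pkgQuot : Cfsg.Agent.Lib.Helper60.SUG.PkgQuot.{u} := by
  intro F _ n q h
  obtain ⟨a, b, hab⟩ := h
  refine ⟨QuotientGroup.mk' (Subgroup.center (Cfsg.SU n F q)) a,
    QuotientGroup.mk' (Subgroup.center (Cfsg.SU n F q)) b, ?_⟩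
  have h1 := MonoidHom.map_closure (QuotientGroup.mk' (Subgroup.center (Cfsg.SU n F q)))
    ({a, b} : Set ↥(Cfsg.SU n F q))
  rw [hab, Set.image_pair] at h1
  rw [← h1]
  exact Subgroup.map_top_of_surjective _ (QuotientGroup.mk'_surjective _)

/-- [CHAIN] induction on `j` with [STEP], then [TOP]. -/
theorem pkgChain : Cfsg.Agent.Lib.Helper60.SUG.PkgChain.{u} := by
  intro hStep hTop F _ _ q n hF hn K m hm2 hmn hq2 hE hx
  have key : ∀ j : ℕ, m ≤ j → j ≤ n →
      ∀ v : Fin n → F, v ≠ 0 → Cfsg.hermForm n F q v v = 0 → Supp j v → Ctr K v := by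
    intro j hmj
    induction j, hmj using Nat.le_induction with
    | base => intro _; exact hE
    | succ j hmj ih =>
      intro hjn
      exact hStep hF K j (le_trans hm2 hmj) hjn (fun h => le_trans (hq2 h) hmj)
        (ih (by omega)) (hx j hmj (by omega))
  apply hTop hF hn
  · rintro ⟨h3, h2⟩
    have := hq2 h2
    omega
  · intro v hv0 hv
    exact key n hmn le_rfl v hv0 hv (fun i hi => absurd i.2 (by omega))

end Cfsg.Agent.Lib.Helper75.SUG
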