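-- Team project SUG (S2412): [GEN] leaves [GDIAG], [GCOMM2], [GDCONJ] (helper75).
import Mathlib
import Cfsg.Agent.Lib.Helper60.SUG.GenDefs
import Cfsg.Agent.Lib.Helper13.UTransvComm
import Cfsg.Agent.Lib.Helper45.HermSU

set_option autoImplicit false

namespace Cfsg.Agent.Lib.Helper75.SUG

open Matrix Cfsg.Agent.Lib.Helper60.SUG

universe u

section aux

variable {F : Type u} [Field F] {q n : ℕ}

theorem mat_mul75 (a b : ↥(Cfsg.SU n F q)) : mat (a * b) = mat a * mat b := rfl

theorem mat_one75 : mat (1 : ↥(Cfsg.SU n F q)) = 1 := rfl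

theorem mat_pow75 (a : ↥(Cfsg.SU n F q)) (k : ℕ) : mat (a ^ k) = mat a ^ k := by
  induction k with
  | zero => rfl
  | succ k ih => rw [pow_succ, pow_succ, mat_mul75, ih]

theorem prod_dV75 (hn : 4 ≤ n) (α : F) (hα : α ≠ 0) : ∏ i : Fin n, dV n α i = 1 := by
  have h1 : ∏ i : Fin n, dV n α i =
      ∏ k ∈ Finset.range n, (if k < 2 then α else if k < 4 then α⁻¹ else 1) := by
    rw [← Fin.prod_univ_eq_prod_range]
    rfl
  rw [h1, ← Finset.prod_range_mul_prod_Ico _ hn]
  have h2 : ∏ k ∈ Finset.Ico 4 n, (if k < 2 then α else if k < 4 then α⁻¹ else 1) = 1 := by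
    apply Finset.prod_eq_one
    intro k hk
    rw [Finset.mem_Ico] at hk
    rw [if_neg (by omega), if_neg (by omega)]
  rw [h2, mul_one]
  simp [Finset.prod_range_succ]
  field_simp

end aux

/-- [GDIAG] the diagonal element. -/
theorem pkgGDiag : Cfsg.Agent.Lib.Helper60.SUG.PkgGDiag.{u} := by
  intro F _ _ q hF n hn α hα
  have hα0 : α ≠ 0 := by
    rintro rfl
    rw [zero_pow (by omega)] at hα
    exact zero_ne_one hα
  have hdet : (Matrix.diagonal (dV n α)).det = 1 := by
    rw [Matrix.det_diagonal]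
    exact prod_dV75 hn α hα0
  have hiso : Cfsg.Agent.Lib.Helper45.IsHermIso n F q (Matrix.diagonal (dV n α)) := by
    apply Cfsg.Agent.Lib.Helper45.isHermIso_diagonal
    intro i
    unfold dV
    split_ifs
    · exact hα
    · rw [inv_pow, hα, inv_one]
    · exact one_pow _
  refine ⟨Cfsg.Agent.Lib.Helper13.suMk _ hdet hiso, rfl, ?_⟩
  apply Cfsg.Agent.Lib.Helper13.su_ext
  change mat (Cfsg.Agent.Lib.Helper13.suMk _ hdet hiso ^ orderOf α) = mat 1
  rw [mat_pow75, mat_one75]
  change Matrix.diagonal (dV n α) ^ orderOf α = 1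
  rw [Matrix.diagonal_pow, ← Matrix.diagonal_one]
  congr 1
  funext i
  simp only [Pi.pow_apply, Pi.one_apply]
  unfold dV
  split_ifs
  · exact pow_orderOf_eq_one α
  · rw [inv_pow, pow_orderOf_eq_one, inv_one]
  · exact one_pow _

/-- [GCOMM2] `d` commutes with `T_{vA, c₀}`. -/
theorem pkgGComm2 : Cfsg.Agent.Lib.Helper60.SUG.PkgGComm2.{u} := by
  intro F _ _ q hF n hn lam α c₀ g₀ d _ _ _ hg hd
  apply Cfsg.Agent.Lib.Helper13.su_ext
  change mat (g₀ * d) = mat (d * g₀)
  rw [mat_mul75, mat_mul75, hg, hd]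
  have hA : ∀ i : Fin n, dV n α i * vA n lam i = α * vA n lam i := by
    intro i
    unfold dV vA
    by_cases h0 : (i : ℕ) = 0
    · simp [h0]
    · by_cases h1 : (i : ℕ) = 1
      · simp [h1]
      · simp [h0, h1]
  have hq : q ≠ 0 := by
    rintro rfl
    have : Fintype.card F = 0 := by rw [hF]; rfl
    exact Fintype.card_ne_zero this
  ext i j
  rw [Matrix.mul_diagonal, Matrix.diagonal_mul]
  simp only [Cfsg.unitaryTransvection, Matrix.add_apply, Matrix.smul_apply,
    Matrix.vecMulVec_apply, smul_eq_mul, Matrix.one_apply]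
  have h1 := hA i
  have h2 : vA n lam j ^ q * dV n α j = α * vA n lam j ^ q := by
    by_cases hj : (j : ℕ) < 2
    · have h3 : dV n α j = α := by unfold dV; rw [if_pos hj]
      rw [h3, mul_comm]
    · have h3 : vA n lam j = 0 := by
        unfold vA
        rw [if_neg (by omega), if_neg (by omega)]
      rw [h3, zero_pow hq, zero_mul, mul_zero]
  by_cases hij : i = j
  · subst hij
    rw [if_pos rfl]
    linear_combination (c₀ * vA n lam i) * h2 - (c₀ * vA n lam i ^ q) * h1
  · rw [if_neg hij]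
    linear_combination (c₀ * vA n lam i) * h2 - (c₀ * vA n lam j ^ q) * h1

/-- [GDCONJ] `c⁻¹ d c` maps `vA` to `vB`. -/
theorem pkgGDConj : Cfsg.Agent.Lib.Helper60.SUG.PkgGDConj.{u} := by
  intro F _ _ q hF n hn lam α c d _ hc hd
  have hcc : mat c⁻¹ * mat c = 1 := by
    rw [← mat_mul75, inv_mul_cancel, mat_one75]
  have key : mat d *ᵥ (mat c *ᵥ vA n lam) = mat c *ᵥ vB n lam α := by
    funext j
    rw [hd, Matrix.mulVec_diagonal]
    by_cases hj0 : (j : ℕ) = 0
    · have hlast : (n - 1) < n := by omega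
      rw [hc.2 (vB n lam α) ⟨n - 1, hlast⟩ j hj0 (by simp; omega),
        hc.2 (vA n lam) ⟨n - 1, hlast⟩ j hj0 (by simp; omega)]
      have h3 : ¬ (n - 1 = 0) := by omega
      have h4 : ¬ (n - 1 = 1) := by omega
      simp [vA, vB, h3, h4]
    · have hi : (j : ℕ) - 1 < n := by omega
      rw [hc.1 (vB n lam α) ⟨(j : ℕ) - 1, hi⟩ j (by simp; omega),
        hc.1 (vA n lam) ⟨(j : ℕ) - 1, hi⟩ j (by simp; omega)]
      by_cases hj1 : (j : ℕ) = 1
      · simp [vA, vB, dV, hj1]
      · by_cases hj2 : (j : ℕ) = 2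
        · simp [vA, vB, dV, hj2]
          ring
        · have h5 : ¬ ((j : ℕ) - 1 = 0) := by omega
          have h6 : ¬ ((j : ℕ) - 1 = 1) := by omega
          simp [vA, vB, h5, h6]
  rw [mat_mul75, mat_mul75, ← Matrix.mulVec_mulVec, ← Matrix.mulVec_mulVec, key,
    Matrix.mulVec_mulVec, hcc, Matrix.one_mulVec]

end Cfsg.Agent.Lib.Helper75.SUG
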