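-- Team project SUG (S2412): [GEN] leaf [GCOMM1] (helper75).
import Mathlib
import Cfsg.Agent.Lib.Helper60.SUG.GenDefs
import Cfsg.Agent.Lib.Helper13.UTransvComm
import Cfsg.Agent.Lib.Helper75.SUG.GDiag

set_option autoImplicit false

namespace Cfsg.Agent.Lib.Helper75.SUG

open Matrix Cfsg.Agent.Lib.Helper60.SUG

universe u

/-- [GCOMM1] `c² t c⁻²` fixes `vA`, hence commutes with `T_{vA, c₀}`. -/
theorem pkgGComm1 : Cfsg.Agent.Lib.Helper60.SUG.PkgGComm1.{u} := by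
  intro F _ _ q hF n hn lam μ c₀ c g₀ t _ _ hc hg ht
  have hcc : mat c⁻¹ * mat c = 1 := by
    rw [← mat_mul75, inv_mul_cancel, mat_one75]
  have hinv : ∀ x : Fin n → F, mat c⁻¹ *ᵥ (mat c *ᵥ x) = x := by
    intro x
    rw [Matrix.mulVec_mulVec, hcc, Matrix.one_mulVec]
  set s : F := (-1) ^ (n + 1) with hs
  have hss : s * s = 1 := by
    rw [hs, ← pow_add, ← two_mul, pow_mul]
    simp
  set w : Fin n → F := fun i => if (i : ℕ) + 2 = n then s else if (i : ℕ) + 1 = n then s * lam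
    else 0 with hw
  have hn1 : n - 1 < n := by omega
  have hn2 : n - 2 < n := by omega
  have h0n : 0 < n := by omega
  have hA : mat c *ᵥ (mat c *ᵥ w) = vA n lam := by
    funext j
    by_cases hj0 : (j : ℕ) = 0
    · rw [hc.2 (mat c *ᵥ w) ⟨n - 1, hn1⟩ j hj0 (by simp; omega),
        hc.1 w ⟨n - 2, hn2⟩ ⟨n - 1, hn1⟩ (by simp; omega)]
      have h1 : n - 2 + 2 = n := by omega
      simp [hw, vA, hj0, h1, ← hs, hss]
    · by_cases hj1 : (j : ℕ) = 1
      · rw [hc.1 (mat c *ᵥ w) ⟨0, h0n⟩ j (by simp; omega),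
          hc.2 w ⟨n - 1, hn1⟩ ⟨0, h0n⟩ rfl (by simp; omega)]
        have h1 : ¬ (n - 1 + 2 = n) := by omega
        have h2 : n - 1 + 1 = n := by omega
        simp only [hw, vA, hj1, h1, h2, if_true, if_false, ← hs]
        rw [if_neg (by omega), ← mul_assoc, hss, one_mul]
      · have hj' : (j : ℕ) - 1 < n := by omega
        have hj'' : (j : ℕ) - 2 < n := by omega
        rw [hc.1 (mat c *ᵥ w) ⟨(j : ℕ) - 1, hj'⟩ j (by simp; omega),
          hc.1 w ⟨(j : ℕ) - 2, hj''⟩ ⟨(j : ℕ) - 1, hj'⟩ (by simp; omega)]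
        have h1 : ¬ ((j : ℕ) - 2 + 2 = n) := by omega
        have h2 : ¬ ((j : ℕ) - 2 + 1 = n) := by omega
        simp [hw, vA, hj0, hj1, h1, h2]
  have hB : ∀ i : Fin n, (i : ℕ) < 2 → w i = 0 := by
    intro i hi
    have h1 : ¬ ((i : ℕ) + 2 = n) := by omega
    have h2 : ¬ ((i : ℕ) + 1 = n) := by omega
    simp [hw, h1, h2]
  have htw : mat t *ᵥ w = w := ht.2.2.1 w hB
  have hG : mat (c * c * t * c⁻¹ * c⁻¹) *ᵥ vA n lam = vA n lam := by
    conv_lhs => rw [← hA]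
    simp only [mat_mul75, ← Matrix.mulVec_mulVec]
    rw [hinv, hinv, htw, hA]
  have hiso : Cfsg.Agent.Lib.Helper45.IsHermIso n F q (mat (c * c * t * c⁻¹ * c⁻¹)) :=
    (c * c * t * c⁻¹ * c⁻¹).2
  have hconj := Cfsg.Agent.Lib.Helper13.utransv_conj hiso (vA n lam) c₀
  rw [hG] at hconj
  apply Cfsg.Agent.Lib.Helper13.su_ext
  change mat (g₀ * (c * c * t * c⁻¹ * c⁻¹)) = mat ((c * c * t * c⁻¹ * c⁻¹) * g₀)
  rw [mat_mul75 g₀, mat_mul75 _ g₀, hg]
  exact hconj.symm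

end Cfsg.Agent.Lib.Helper75.SUG
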